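import Cfsg.Agent.OD.Pre
import Cfsg.Agent.H6.V11.F0
import Cfsg.Agent.H6.V11.O
set_option autoImplicit false
set_option maxRecDepth 100000
set_option Elab.async false
set_option linter.all false
namespace CfH6.V11
open CfH6 CfH6.D MulAction
theorem p0 : Rng (P.chk) 0 267 := rng_of 0 2 11 267 (by decide +kernel)
theorem c0 : (QO.ok && Nat.blt 0 QO.m && Nat.beq (P.chkCos QO trO 267 LM ed 0 [nat_lit 252, nat_lit 24] 0 0 1 ct0) 0) = true := by decide +kernel
theorem c1 : (QO.ok && Nat.blt 0 QO.m && Nat.beq (P.chkCos QO trO 267 LM ed 1 [nat_lit 25, nat_lit 27, nat_lit 29] 1 0 4 ct1) 0) = true := by decide +kernel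
theorem l1 : (M24D.QD.ok && Nat.beq (chkLevs M24D.QD M24D.trD P.cdK (P.okE 267 1) lev1 []) 0 && Nat.beq (lev1.map Lev.c).prod 138240) = true := by decide +kernel
theorem c2 : (QO.ok && Nat.blt 0 QO.m && Nat.beq (P.chkCos QO trO 267 LM ed 2 [nat_lit 47, nat_lit 112, nat_lit 60, nat_lit 35, nat_lit 250] 5 0 2 ct2) 0) = true := by decide +kernel
theorem l2 : (M24D.QD.ok && Nat.beq (chkLevs M24D.QD M24D.trD P.cdK (P.okE 267 2) lev2 []) 0 && Nat.beq (lev2.map Lev.c).prod 887040) = true := by decide +kernel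
theorem lB : (M24D.QD.ok && Nat.beq (chkLevs M24D.QD M24D.trD P.cdK (P.okP 267 trO) levB []) 0 && Nat.beq (levB.map Lev.c).prod 138240) = true := by decide +kernel
end CfH6.V11
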